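import Mathlib
import Cfsg.Agent.Lib.KGV.Knorr

/-! Square roots of `h ↦ [U : C_U(h)]` coming from invariant quadratic forms. -/

set_option autoImplicit false

namespace CfsgLib.KGV

open Cfsg CfsgLib.Char CfsgLib.Block CfsgLib.Blk LinearMap
open scoped ComplexConjugate

variable {p : ℕ} [hp : Fact p.Prime] {M : Ideal AlgInt} {H U : Type*} [Group H] [AddCommGroup U] [Module (ZMod p) U]

local notation "e" => ZMod.stdAddChar (N := p)

theorem e_mem (t : ZMod p) : e t ∈ cycInt p :=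
  mem_cycInt_of_pow (by rw [← AddChar.map_nsmul_eq_pow, nsmul_eq_mul, ZMod.natCast_self, zero_mul, AddChar.map_zero_eq_one])

open Classical in
theorem sum_e [Fintype U] (φ : U →ₗ[ZMod p] ZMod p) : ∑ u, e (φ u) = if φ = 0 then (Nat.card U : ℂ) else 0 := by
  rw [Nat.card_eq_fintype_card]
  refine (AddChar.sum_eq_ite ((e).compAddMonoidHom φ.toAddMonoidHom)).trans (if_congr ⟨fun h => LinearMap.ext fun u =>
    ZMod.injective_stdAddChar ?_, fun h => by subst h; ext; simp⟩ rfl rfl)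
  simpa using DFunLike.congr_fun h u

theorem gauss_norm [Fintype U] (Q : U → ZMod p) (B : LinearMap.BilinForm (ZMod p) U)
    (hQ : ∀ u w, Q (u + w) = Q u + Q w + B u w) (hB : ∀ d, B d = 0 → d = 0) :
    (∑ u, e (Q u)) * conj (∑ u, e (Q u)) = Nat.card U := by
  classical
  have h0 : Q 0 = 0 := by simpa using hQ 0 0
  rw [map_sum, Finset.mul_sum, Finset.sum_congr rfl fun w _ => show _ = ∑ d, e (Q d) * e (B d w) by
    rw [← Equiv.sum_comp (Equiv.addRight w), Finset.sum_mul]
    refine Finset.sum_congr rfl fun d _ => ?_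
    rw [← AddChar.map_neg_eq_conj, ← AddChar.map_add_eq_mul, ← AddChar.map_add_eq_mul, Equiv.coe_addRight, hQ]
    congr 1; ring, Finset.sum_comm, Finset.sum_eq_single 0]
  · simp [h0]
  · intro d _ hd
    rw [← Finset.mul_sum, sum_e, if_neg (mt (hB d) hd), mul_zero]
  · simp

theorem li_conj (hM : IsPModular p M) {y : ℂ} (hy : y ∈ cycInt p) (h : MemLocalIdeal M (y * conj y)) :
    MemLocalIdeal M y ∧ MemLocalIdeal M (conj y) := by
  have hn := hp.out.ne_zero
  have hI := fun {x : ℂ} (hx : x ∈ cycInt p) => lr_of_isIntegral hM (isIntegral_of_mem_cycInt hn hx)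
  have hζ := Complex.isPrimitiveRoot_exp p hn
  obtain ⟨a, z, hz, e1⟩ := exists_eq_int_add_mul hn hζ hy
  generalize Complex.exp _ = ζ at hζ e1
  have h1 : MemLocalIdeal M (y - conj y) := by
    have := li_sub hM (li_mul_right hM (li_sub_one_of_pow hM (k := 1) (z := conj ζ) (by
      rw [pow_one, ← map_pow, hζ.pow_eq_one, map_one])) (hI (conj_mem_cycInt hn hz)))
      (li_mul_right hM (li_sub_one_of_pow hM (k := 1) (by rw [pow_one, hζ.pow_eq_one])) (hI hz))
    convert this using 1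
    rw [e1]; simp; ring
  rcases li_prime hM (hI hy) (hI (conj_mem_cycInt hn hy)) h with h2 | h2
  · exact ⟨h2, by simpa using li_sub hM h2 h1⟩
  · exact ⟨by simpa using li_add hM h1 h2, h2⟩

variable (ρ : Representation (ZMod p) H U)

open Classical in
theorem fix_sum_mem [Fintype U] (g : U → ℂ) (hg : ∀ x u, g (ρ x u) = g u) (hc : ∀ u, g u ∈ cycInt p) :
    (fun x => ∑ u : ker (ρ x - 1), g u) ∈ CS p H := by
  let _ : MulAction H U := MulAction.compHom U (ρ : H →* Module.End (ZMod p) U)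
  let X : ℂ → SubMulAction H U := fun c => ⟨{u | g u = c}, fun x u h => (hg x u).trans h⟩
  have : (fun x => ∑ u : ker (ρ x - 1), g u) =
      ∑ c ∈ Finset.univ.image g, c • fun x => (Nat.card (MulAction.fixedBy (X c) x) : ℂ) := funext fun x => by
    rw [← Finset.sum_fiberwise_of_maps_to (t := Finset.univ.image g) (g := fun u : ker (ρ x - 1) => g u) (by simp),
      Finset.sum_apply]
    refine Finset.sum_congr rfl fun c _ => ?_
    rw [Finset.sum_congr rfl fun u hu => (Finset.mem_filter.1 hu).2, Finset.sum_const, nsmul_eq_mul, mul_comm,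
      ← Fintype.card_subtype, ← Nat.card_eq_fintype_card, Pi.smul_apply, smul_eq_mul]
    congr 2
    exact Nat.card_congr ⟨fun u => ⟨⟨u.1, u.2⟩, Subtype.ext (sub_eq_zero.1 u.1.2)⟩,
      fun u => ⟨⟨u.1, sub_eq_zero.2 (congrArg Subtype.val u.2)⟩, u.1.2⟩, fun _ => rfl, fun _ => rfl⟩
  rw [this]
  refine Submodule.sum_mem _ fun c hc' => smul_mem_CS ?_ (mem_CS (isGenChar_of_isCharacter (isCharacter_perm _)))
  obtain ⟨u, -, rfl⟩ := Finset.mem_image.1 hc'
  exact hc u

theorem exists_card_eq (W : Type*) [AddCommGroup W] [Module (ZMod p) W] [Finite W] : ∃ j, Nat.card W = p ^ j :=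
  ⟨_, by rw [Module.natCard_eq_pow_finrank (K := ZMod p), Nat.card_zmod]⟩

/-- `ψ` is a square root of `x ↦ |[U, x]|`. -/
structure Good (M : Ideal AlgInt) (ψ : H → ℂ) : Prop where
  mem : ψ ∈ CS p H
  norm : ∀ x, ψ x * conj (ψ x) = Nat.card (range (ρ x - 1))
  li : ∀ x, ρ x ≠ 1 → MemLocalIdeal M (conj (ψ x))

variable {ρ} [Finite H] [Finite U]

theorem good_of (hM : IsPModular p M) (hH : ¬ p ∣ Nat.card H) {ψ : H → ℂ}
    (h1 : (ψ * fun x => (Nat.card (ker (ρ x - 1)) : ℂ)) ∈ CS p H) (h2 : ∀ x, ψ x * conj (ψ x) = Nat.card (range (ρ x - 1)))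
    {n : ℕ} (hn : n ≠ 0) (h3 : ∀ x, ψ x ^ n ∈ cycInt p) : Good ρ M ψ := by
  have := Fintype.ofFinite H
  have := Fintype.ofFinite U
  have hp0 := hp.out.ne_zero
  have hI : ∀ x, IsIntegral ℤ (ψ x) := fun x => .of_pow (Nat.pos_of_ne_zero hn) (isIntegral_of_mem_cycInt hp0 (h3 x))
  refine ⟨?_, h2, fun x hx => li_of_pow hM (lr_of_isIntegral hM ((hI x).map (starRingEnd ℂ).toIntAlgHom)) (n := n) ?_⟩
  · have h4 := fix_sum_mem ρ (fun _ => 1) (fun _ _ => rfl) fun _ => one_mem _
    simp only [Finset.sum_const, Finset.card_univ, nsmul_one, ← Nat.card_eq_fintype_card] at h4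
    choose j hj using fun x => exists_card_eq (p := p) (ker (ρ x - 1))
    generalize hπ : (fun x => (Nat.card (ker (ρ x - 1)) : ℂ)) = π at h1 h4
    have h0 : (1 : H → ℂ) ∈ CS p H := mem_CS (isGenChar_of_isCharacter isCharacter_one)
    have h5 : ∀ s : Finset ℕ, ∃ N : ℕ, ∃ g ∈ CS p H, ∏ i ∈ s, (((p : ℂ) ^ i) • 1 - π) = ((p : ℂ) ^ N) • 1 - π * g := fun s => by
      induction s using Finset.induction with
      | empty => exact ⟨0, 0, zero_mem _, by simp⟩
      | insert i s hi ih =>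
        obtain ⟨N, g, hg, e1⟩ := ih
        refine ⟨i + N, _, sub_mem (add_mem (smul_mem_CS (pow_mem (natCast_mem _ p) N) h0)
          (smul_mem_CS (pow_mem (natCast_mem _ p) i) hg)) (mul_mem_CS h4 hg), ?_⟩
        rw [Finset.prod_insert hi, e1]; ext; simp; ring
    obtain ⟨N, g, hg, e1⟩ := h5 (Finset.univ.image j)
    have h6 : ((p : ℂ) ^ N) • ψ = ψ * π * g := funext fun x => by
      have := congrFun e1 x
      rw [Finset.prod_apply, Finset.prod_eq_zero (Finset.mem_image_of_mem j (Finset.mem_univ x)) (by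
        rw [← hπ, Pi.sub_apply, hj]; simp)] at this
      simp only [Pi.sub_apply, Pi.smul_apply, Pi.mul_apply, Pi.one_apply, smul_eq_mul] at this ⊢
      linear_combination -ψ x * this
    have h7 := h6 ▸ mul_mem_CS h1 hg
    have h8 : ((p : ℂ) ^ N) ≠ 0 := pow_ne_zero _ (Nat.cast_ne_zero.2 hp0)
    rw [classFun_eq_sum (f := ψ) fun a b => mul_left_cancel₀ h8 (isClassFunction_of_CS h7 a b)]
    refine Submodule.sum_mem _ fun χ _ => smul_mem_CS ?_ (mem_CS (isGenChar_of_isIrr χ.2))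
    have h9 := classInner_mem_of_CS hp0 h7 (mem_CS (isGenChar_of_isIrr χ.2))
    rw [classInner_smul_left] at h9
    have := cycInt_div_p_pow hM (k := 0) N (by simpa using h9) (by
      rw [mul_div_cancel_left₀ _ h8, classInner_def]
      exact lr_mul hM (lr_inv_nat hM hH) (lr_sum hM fun x _ => lr_of_isIntegral hM ((hI x).mul
        (isIntegral_char (isCharacter_conj (irr_isCharacter χ)) x))))
    rwa [mul_div_cancel_left₀ _ h8, zero_add, pow_one] at this
  · rw [← map_pow]
    refine (li_conj hM (h3 x) ?_).2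
    obtain ⟨j, hj⟩ := exists_card_eq (p := p) (range (ρ x - 1))
    rw [map_pow, ← mul_pow, h2, ← Nat.cast_pow, li_natCast_iff hM]
    refine dvd_pow (hj ▸ dvd_pow_self p fun h => hx (sub_eq_zero.1 (range_eq_bot.1 ?_))) hn
    rw [h, pow_zero, Nat.card_eq_one_iff_unique] at hj
    exact Submodule.subsingleton_iff_eq_bot.1 hj.1

omit [Finite H] in
theorem isCompl_ker_range (hH : ¬ p ∣ Nat.card H) (x : H) : IsCompl (ker (ρ x - 1)) (range (ρ x - 1)) := by
  refine (Submodule.isCompl_iff_disjoint _ _ ((add_comm _ _).trans (finrank_range_add_finrank_ker _)).ge).2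
    (Submodule.disjoint_def.2 ?_)
  rintro _ h ⟨w, rfl⟩
  have h1 := DFunLike.congr_fun (geom_sum_mul (ρ x) (Nat.card H)) w
  have h2 : ∀ i : ℕ, (ρ x ^ i) ((ρ x - 1) w) = (ρ x - 1) w := fun i => by
    induction i with
    | zero => rfl
    | succ i ih => rw [pow_succ', Module.End.mul_apply, ih]; exact sub_eq_zero.1 h
  rw [← map_pow, pow_card_eq_one', map_one, sub_self, Module.End.mul_apply, LinearMap.sum_apply,
    Finset.sum_congr rfl fun i _ => h2 i, Finset.sum_const, Finset.card_range, ← Nat.cast_smul_eq_nsmul (ZMod p)] at h1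
  exact (smul_eq_zero.1 h1).resolve_left (mt (ZMod.natCast_eq_zero_iff _ _).1 hH)

omit [Finite H] [Finite U] in
theorem orth {B : LinearMap.BilinForm (ZMod p) U} (hB : ∀ x u w, B (ρ x u) (ρ x w) = B u w) {x : H} {c d : U}
    (hc : c ∈ ker (ρ x - 1)) (hd : d ∈ range (ρ x - 1)) : B c d = 0 ∧ B d c = 0 := by
  obtain ⟨w, rfl⟩ := hd
  have h1 := hB x c w
  have h2 := hB x w c
  rw [show ρ x c = c from sub_eq_zero.1 hc] at h1 h2
  simp [h1, h2]

omit [Finite H] in
theorem eq_zero_of_orth (hH : ¬ p ∣ Nat.card H) {B : LinearMap.BilinForm (ZMod p) U}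
    (hB : ∀ x u w, B (ρ x u) (ρ x w) = B u w) {x : H} {d : U} (hd : d ∈ range (ρ x - 1))
    (h : ∀ w ∈ range (ρ x - 1), B d w = 0) : B d = 0 := LinearMap.ext fun u => by
  obtain ⟨c, hc, w, hw, rfl⟩ := Submodule.mem_sup.1 ((isCompl_ker_range (ρ := ρ) hH x).sup_eq_top.ge (Submodule.mem_top (x := u)))
  simp [h w hw, (orth hB hc hd).2]

end CfsgLib.KGV
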