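import Mathlib
import Cfsg.Agent.Lib.KGV.RealA

/-! The Weil representation gives a square root of `h ↦ [U : C_U(h)]` for symplectic coprime modules. -/

set_option autoImplicit false

namespace CfsgLib.KGV

open Cfsg CfsgLib.Char CfsgLib.Block CfsgLib.Blk LinearMap
open scoped ComplexConjugate

variable {p : ℕ} [hp : Fact p.Prime] {M : Ideal AlgInt} {H U : Type*} [Group H] [AddCommGroup U] [Module (ZMod p) U]
  {ρ : Representation (ZMod p) H U} [Finite H] [Finite U]

local notation "e" => ZMod.stdAddChar (N := p)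

/-- A projective representation of degree prime to the group order lifts. -/
theorem exists_lift {n : Type*} [Fintype n] [DecidableEq n] [Nonempty n] (T : H → Matrix n n ℂ) (hT : ∀ x, (T x).det ≠ 0)
    (hc : ∀ x y, ∃ c : ℂ, T x * T y = c • T (x * y)) (hcop : (Fintype.card n).Coprime (Nat.card H)) :
    ∃ s : H → ℂ, ∃ R : H →* Matrix n n ℂ, ∀ x, R x = s x • T x := by
  have := Fintype.ofFinite H
  choose c hc using hc
  have hd : ∀ x y, (T x).det * (T y).det = c x y ^ Fintype.card n * (T (x * y)).det := fun x y => by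
    rw [← Matrix.det_mul, hc, Matrix.det_smul]
  have hc0 : ∀ x y, c x y ≠ 0 := fun x y h => mul_ne_zero (hT x) (hT y) (by
    rw [hd, h, zero_pow Fintype.card_ne_zero, zero_mul])
  have hco : ∀ x y z, c x y * c (x * y) z = c y z * c x (y * z) := fun x y z =>
    smul_left_injective ℂ (m := T (x * y * z)) (fun h => hT _ (by rw [h, Matrix.det_zero])) (by
      have := mul_assoc (T x) (T y) (T z)
      rwa [hc, hc, smul_mul_assoc, mul_smul_comm, hc, hc, smul_smul, smul_smul, ← mul_assoc] at this)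
  have he : ∀ x y, (∏ z, c x z) * ∏ z, c y z = c x y ^ Nat.card H * ∏ z, c (x * y) z := fun x y => by
    rw [← Equiv.prod_comp (Equiv.mulLeft y) (c x), ← Finset.prod_mul_distrib, Nat.card_eq_fintype_card,
      ← Finset.card_univ, ← Finset.prod_const, ← Finset.prod_mul_distrib]
    exact Finset.prod_congr rfl fun z _ => (mul_comm _ _).trans (hco x y z).symm
  obtain ⟨a, b, hab⟩ := Nat.isCoprime_iff_coprime.2 hcop
  have h0 : ∀ x, (T x).det ^ a * (∏ z, c x z) ^ b ≠ 0 := fun x =>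
    mul_ne_zero (zpow_ne_zero _ (hT x)) (zpow_ne_zero _ (Finset.prod_ne_zero_iff.2 fun z _ => hc0 x z))
  have hs : ∀ x y, ((T x).det ^ a * (∏ z, c x z) ^ b) * ((T y).det ^ a * (∏ z, c y z) ^ b) =
      c x y * ((T (x * y)).det ^ a * (∏ z, c (x * y) z) ^ b) := fun x y => by
    rw [mul_mul_mul_comm, ← mul_zpow, ← mul_zpow, hd, he, mul_zpow, mul_zpow, mul_mul_mul_comm, ← zpow_natCast,
      ← zpow_natCast, ← zpow_mul, ← zpow_mul, ← zpow_add₀ (hc0 x y), mul_comm _ a, mul_comm _ b, hab, zpow_one]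
  obtain ⟨t, h0, hs⟩ : ∃ t : H → ℂ, (∀ x, t x ≠ 0) ∧ ∀ x y, t x * t y = c x y * t (x * y) := ⟨_, h0, hs⟩
  have hm : ∀ x y, (t (x * y))⁻¹ • T (x * y) = (t x)⁻¹ • T x * (t y)⁻¹ • T y := fun x y => by
    rw [smul_mul_smul_comm, hc, smul_smul, ← mul_inv, hs, mul_inv_rev, inv_mul_cancel_right₀ (hc0 x y)]
  refine ⟨fun x => (t x)⁻¹, ⟨⟨fun x => (t x)⁻¹ • T x, ?_⟩, hm⟩, fun _ => rfl⟩
  refine IsUnit.mul_left_cancel (a := (t 1)⁻¹ • T 1) ((Matrix.isUnit_iff_isUnit_det _).2 (Ne.isUnit ?_))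
    (by rw [← hm, mul_one, mul_one])
  rw [Matrix.det_smul]
  exact mul_ne_zero (pow_ne_zero _ (inv_ne_zero (h0 1))) (hT 1)

theorem exists_good_alt (hM : IsPModular p M) (hH : ¬ p ∣ Nat.card H) {ω : LinearMap.BilinForm (ZMod p) U}
    (hω : ∀ x u w, ω (ρ x u) (ρ x w) = ω u w) (h0 : ∀ u, ω u u = 0) (hω' : ∀ c, ω c + ω c = 0 → c = 0) :
    ∃ ψ, Good ρ M ψ := by
  classical
  have := Fintype.ofFinite U
  have hs : ∀ u w, ω w u = -ω u w := fun u w => by
    have := h0 (u + w)
    simp only [map_add, LinearMap.add_apply, h0] at this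
    linear_combination this
  obtain ⟨E, E1, E2, E3, E4⟩ : ∃ E : U → Matrix U U ℂ, (∀ u v, E u * E v = e (ω u v) • E (u + v)) ∧ E 0 = 1 ∧
      (∀ u, (E u).trace = if u = 0 then (Nat.card U : ℂ) else 0) ∧ ∀ u w w', E u w w' ∈ cycInt p := by
    refine ⟨fun u => .of fun w w' => if w = u + w' then e (ω u w') else 0, fun u v => ?_, ?_, fun u => ?_, fun u w w' => ?_⟩
    · ext w w'
      simp only [Matrix.mul_apply, Matrix.of_apply, mul_ite, mul_zero, Finset.sum_ite_eq', Finset.mem_univ, if_true,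
        Matrix.smul_apply, smul_eq_mul, add_assoc, ite_mul, zero_mul, ← AddChar.map_add_eq_mul, map_add, LinearMap.add_apply]
    · ext; simp [Matrix.one_apply]
    · split_ifs with h <;> simp [Matrix.trace, h]
    · simp only [Matrix.of_apply]; split_ifs; exacts [e_mem _, zero_mem _]
  let 𝒜 := Submodule.span ℂ (Set.range E)
  have hE : ∀ u, E u ∈ 𝒜 := fun u => Submodule.subset_span ⟨u, rfl⟩
  have hmul : ∀ {A B}, A ∈ 𝒜 → B ∈ 𝒜 → A * B ∈ 𝒜 := fun hA hB => by
    refine (?_ : 𝒜 * 𝒜 ≤ 𝒜) (Submodule.mul_mem_mul hA hB)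
    rw [Submodule.span_mul_span, Submodule.span_le]
    rintro _ ⟨_, ⟨u, rfl⟩, _, ⟨v, rfl⟩, rfl⟩
    exact (congrArg (· ∈ 𝒜) (E1 u v)).mpr (𝒜.smul_mem _ (hE _))
  have havg : ∀ A ∈ 𝒜, ∑ v, E v * A * E (-v) = A.trace • (1 : Matrix U U ℂ) := fun A hA => by
    induction hA using Submodule.span_induction with
    | mem _ h =>
      obtain ⟨w, rfl⟩ := h
      have h1 : ∀ v, E v * E w * E (-v) = e ((ω (-w) + ω (-w)) v) • E w := fun v => by
        rw [E1, smul_mul_assoc, E1, smul_smul, ← AddChar.map_add_eq_mul, add_comm v, add_neg_cancel_right]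
        simp [h0, hs w v]
      rw [Finset.sum_congr rfl fun v _ => h1 v, ← Finset.sum_smul, sum_e, E3]
      by_cases h : w = 0
      · simp [h, E2]
      · rw [if_neg h, if_neg fun h2 => h (neg_eq_zero.1 (hω' _ h2)), zero_smul, zero_smul]
    | zero => simp
    | add _ _ _ _ h1 h2 => simp [mul_add, add_mul, Finset.sum_add_distrib, add_smul, h1, h2]
    | smul _ _ _ h1 => simp [← Finset.smul_sum, mul_smul, h1]
  obtain ⟨T, hT⟩ : ∃ T : H → Matrix U U ℂ, ∀ x, T x = ∑ u, E (ρ x u) * E (-u) := ⟨_, fun _ => rfl⟩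
  have T0 : ∀ x, T x ∈ 𝒜 := fun x => hT x ▸ sum_mem fun _ _ => hmul (hE _) (hE _)
  have T1 : ∀ x v, T x * E v = E (ρ x v) * T x := fun x v => by
    rw [hT, Finset.sum_mul, Finset.mul_sum, ← Equiv.sum_comp (Equiv.addLeft v)]
    refine Finset.sum_congr rfl fun u _ => ?_
    rw [mul_assoc, E1, ← mul_assoc, E1, hω, mul_smul_comm, smul_mul_assoc]
    simp [h0, hs u v]
  have T2 : ∀ A ∈ 𝒜, ∀ y, (∀ u, A * E (ρ y u) = E u * A) → A * T y = A.trace • (1 : Matrix U U ℂ) := fun A hA y h => by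
    rw [hT, Finset.mul_sum, ← havg A hA]
    exact Finset.sum_congr rfl fun u _ => by rw [← mul_assoc, h]
  have hcard : ∀ x, (Nat.card U : ℂ) = Nat.card (ker (ρ x - 1)) * Nat.card (range (ρ x - 1)) := fun x => by
    rw [← Nat.cast_mul, ← Nat.card_prod, Nat.card_congr (Submodule.prodEquivOfIsCompl _ _ (isCompl_ker_range hH x)).toEquiv]
  have T4 : ∀ x, T x = (Nat.card (ker (ρ x - 1)) : ℂ) • ∑ w : range (ρ x - 1), E (ρ x w) * E (-w.1) := fun x => by
    have h3 : ∀ (c : ker (ρ x - 1)) (w : range (ρ x - 1)), E (ρ x (c.1 + w.1)) * E (-(c.1 + w.1)) = E (ρ x w) * E (-w.1) := fun c w => by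
      have h1 : ρ x c = c := sub_eq_zero.1 c.2
      have h2 := hω x w c
      rw [h1] at h2
      rw [E1, E1, map_add, h1, show c.1 + ρ x w + -(c.1 + w.1) = ρ x w + -w.1 by abel]
      simp [h0, h2, (orth hω c.2 w.2).1, (orth hω c.2 w.2).2]
    rw [hT, ← (Submodule.prodEquivOfIsCompl _ _ (isCompl_ker_range (ρ := ρ) hH x)).toEquiv.sum_comp, Fintype.sum_prod_type]
    refine (Finset.sum_congr rfl fun c _ => Finset.sum_congr rfl fun w _ => h3 c w).trans ?_
    rw [Finset.sum_const, Finset.card_univ, Nat.card_eq_fintype_card, Nat.cast_smul_eq_nsmul]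
  have T5 : ∀ x, (T x).trace = Nat.card U * Nat.card (ker (ρ x - 1)) := fun x => by
    have h1 : ∀ u, (E (ρ x u) * E (-u)).trace = if u ∈ ker (ρ x - 1) then (Nat.card U : ℂ) else 0 := fun u => by
      rw [E1, Matrix.trace_smul, E3, ← sub_eq_add_neg]
      by_cases h : ρ x u - u = 0
      · rw [if_pos h, if_pos (show u ∈ ker (ρ x - 1) from h), sub_eq_zero.1 h]; simp [h0]
      · rw [if_neg h, if_neg (show u ∉ ker (ρ x - 1) from h), smul_zero]
    rw [hT, Matrix.trace_sum, Finset.sum_congr rfl fun u _ => h1 u, ← Finset.sum_filter, Finset.sum_const, nsmul_eq_mul,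
      ← Fintype.card_subtype, mul_comm, Nat.card_eq_fintype_card (α := ker _)]
  have hU : (Nat.card U : ℂ) ≠ 0 := Nat.cast_ne_zero.2 Nat.card_pos.ne'
  have hC : ∀ x, (Nat.card (ker (ρ x - 1)) : ℂ) ≠ 0 := fun x => Nat.cast_ne_zero.2 Nat.card_pos.ne'
  have T3 : ∀ x, T x * T x⁻¹ = ((Nat.card U : ℂ) * Nat.card (ker (ρ x - 1))) • (1 : Matrix U U ℂ) := fun x => by
    rw [T2 _ (T0 x) _ fun u => by rw [T1, Representation.self_inv_apply], T5]
  obtain ⟨s, R, hR⟩ := exists_lift T (fun x h => by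
    have := congrArg Matrix.det (T3 x)
    rw [Matrix.det_mul, h, zero_mul, Matrix.det_smul, Matrix.det_one, mul_one] at this
    exact pow_ne_zero _ (mul_ne_zero hU (hC x)) this.symm) (fun x y => by
    have h1 := congrArg (T (x * y) * ·) (T2 _ (hmul (T0 (x * y)⁻¹) (T0 x)) y fun u => by
      rw [mul_assoc, T1, ← mul_assoc, T1, mul_assoc]; simp)
    simp only [← mul_assoc, T3, smul_mul_assoc, one_mul, mul_smul_comm, mul_one] at h1
    exact ⟨_, by rw [← smul_smul, ← h1, inv_smul_smul₀ (mul_ne_zero hU (hC _))]⟩) (by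
    obtain ⟨j, hj⟩ := exists_card_eq (p := p) U
    rw [← Nat.card_eq_fintype_card, hj]
    exact ((hp.out.coprime_iff_not_dvd).2 hH).pow_left j)
  have hχ : IsCharacter H fun x => s x * Nat.card U * Nat.card (ker (ρ x - 1)) := by
    convert isCharacter_of_rep (G := H) ((Matrix.toLinAlgEquiv' (R := ℂ) (n := U)).toMonoidHom.comp R) using 2 with x
    exact Eq.symm ((Matrix.trace_toLin'_eq (R x)).trans (by rw [hR, Matrix.trace_smul, T5, smul_eq_mul, mul_assoc]))
  have hk : ∀ x, ker (ρ x⁻¹ - 1) = ker (ρ x - 1) := fun x => by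
    ext u
    simp only [mem_ker, LinearMap.sub_apply, Module.End.one_apply, sub_eq_zero]
    exact ⟨fun h => by rw [← h, Representation.self_inv_apply, h], fun h => by rw [← h, Representation.inv_self_apply, h]⟩
  have h1 : ∀ x, s x * Nat.card U * (s x⁻¹ * Nat.card (ker (ρ x - 1))) = 1 := fun x => by
    have := congrFun (congrFun (map_mul R x x⁻¹) 0) 0
    rw [mul_inv_cancel, map_one, hR, hR, smul_mul_smul_comm, T3] at this
    simp only [Matrix.smul_apply, Matrix.one_apply_eq, smul_eq_mul] at this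
    linear_combination -this
  refine ⟨fun x => s x * Nat.card U, good_of hM hH (mem_CS (isGenChar_of_isCharacter hχ)) (fun x => ?_)
    Nat.card_pos.ne' (n := Nat.card H) fun x => ?_⟩
  · have h2 := conj_char_inv hχ x⁻¹
    simp only [inv_inv, hk, map_mul, map_natCast] at h2 ⊢
    rw [mul_right_cancel₀ (hC x) h2]
    linear_combination (Nat.card (range (ρ x - 1)) : ℂ) * h1 x + s x * Nat.card U * s x⁻¹ * hcard x
  · have h2 : ∀ k w w', ((∑ w : range (ρ x⁻¹ - 1), E (ρ x⁻¹ w) * E (-w.1)) ^ k) w w' ∈ cycInt p := fun k => by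
      induction k with
      | zero => intro w w'; rw [pow_zero, Matrix.one_apply]; split_ifs; exacts [one_mem _, zero_mem _]
      | succ k ih =>
        intro w w'
        rw [pow_succ, Matrix.mul_apply]
        refine sum_mem fun _ _ => mul_mem (ih _ _) ?_
        rw [Matrix.sum_apply]
        exact sum_mem fun _ _ => sum_mem fun _ _ => mul_mem (E4 _ _ _) (E4 _ _ _)
    have h3 := congrFun (congrFun (map_pow R x⁻¹ (Nat.card H)) 0) 0
    rw [pow_card_eq_one', map_one, hR, T4, smul_smul, smul_pow, Matrix.smul_apply, Matrix.one_apply_eq, smul_eq_mul] at h3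
    convert h2 (Nat.card H) 0 0 using 1
    rw [← mul_one (_ ^ _), h3, ← mul_assoc, ← mul_pow, hk, h1, one_pow, one_mul]

end CfsgLib.KGV
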