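import Mathlib
import Cfsg.Agent.Lib.KGV.Weil
import Cfsg.Agent.Lib.Char.PermLemma
import Cfsg.Agent.Lib.PLocal.ElemRep
import Cfsg.Agent.Lib.Core.Basic

/-! Square roots of `h ↦ [U : C_U(h)]` for self-dual coprime modules. -/

set_option autoImplicit false

namespace CfsgLib.KGV

open Cfsg CfsgLib.Char CfsgLib.Block CfsgLib.Blk LinearMap
open scoped ComplexConjugate

variable {p : ℕ} [hp : Fact p.Prime] {M : Ideal AlgInt} {H U : Type*} [Group H] [AddCommGroup U] [Module (ZMod p) U]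
  {ρ : Representation (ZMod p) H U} [Finite H] [Finite U]

local notation "e" => ZMod.stdAddChar (N := p)

theorem exists_good_quad (hM : IsPModular p M) (hH : ¬ p ∣ Nat.card H) {β B : LinearMap.BilinForm (ZMod p) U}
    (hβ : ∀ x u w, β (ρ x u) (ρ x w) = β u w) (hβ' : ∀ c, β c = 0 → c = 0) (hB : ∀ x u w, B (ρ x u) (ρ x w) = B u w)
    (hB' : ∀ x, ∀ d ∈ range (ρ x - 1), B d + B.flip d = 0 → d = 0) : ∃ ψ, Good ρ M ψ := by
  classical
  have := Fintype.ofFinite U
  have hn : ∀ x, (∑ w : range (ρ x - 1), e (B w w)) * conj (∑ w : range (ρ x - 1), e (B w w)) =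
      Nat.card (range (ρ x - 1)) := fun x => by
    have := gauss_norm (fun w : range (ρ x - 1) => B w w) (LinearMap.BilinForm.restrict (B + B.flip) (range (ρ x - 1)))
      (fun u w => by simp; ring) fun d hd => Subtype.ext (hB' x d d.2 ?_)
    · exact this
    have h1 : (B + B.flip) d = 0 := eq_zero_of_orth hH (B := B + B.flip) (fun x u w => by simp [hB]) d.2 fun w hw => by
      simpa using DFunLike.congr_fun hd ⟨w, hw⟩
    exact h1
  refine ⟨fun x => ∑ w : range (ρ x - 1), e (B w w), good_of hM hH ?_ hn one_ne_zero fun x => by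
    rw [pow_one]; exact sum_mem fun _ _ => e_mem _⟩
  convert fix_sum_mem ρ (fun y => ∑ u, e (B u u) * e (β u y)) (fun x y => ?_) fun y =>
    sum_mem fun _ _ => mul_mem (e_mem _) (e_mem _) using 1
  · funext x
    have h1 : ∀ u, (β u).comp (ker (ρ x - 1)).subtype = 0 ↔ u ∈ range (ρ x - 1) := fun u => by
      refine ⟨fun h => ?_, fun h => LinearMap.ext fun c => (orth hβ c.2 h).2⟩
      obtain ⟨c, hc, w, hw, rfl⟩ := Submodule.mem_sup.1 ((isCompl_ker_range (ρ := ρ) hH x).sup_eq_top.ge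
        (Submodule.mem_top (x := u)))
      rwa [hβ' c (LinearMap.ext fun v => ?_), zero_add]
      obtain ⟨c', hc', w', hw', rfl⟩ := Submodule.mem_sup.1 ((isCompl_ker_range (ρ := ρ) hH x).sup_eq_top.ge
        (Submodule.mem_top (x := v)))
      simpa [(orth hβ hc hw').1, (orth hβ hc' hw).2] using DFunLike.congr_fun h ⟨c', hc'⟩
    have h2 : ∀ u, ∑ c : ker (ρ x - 1), e (B u u) * e (β u c) = e (B u u) *
        if (β u).comp (ker (ρ x - 1)).subtype = 0 then (Nat.card (ker (ρ x - 1)) : ℂ) else 0 := fun u => by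
      rw [← Finset.mul_sum]; exact congrArg _ (sum_e ((β u).comp (ker (ρ x - 1)).subtype))
    rw [Finset.sum_comm, Pi.mul_apply, Finset.sum_congr rfl fun u _ => h2 u, Finset.sum_mul]
    simp only [h1, mul_ite, mul_zero]
    rw [← Finset.sum_filter]
    exact (Finset.sum_subtype _ (by simp) fun u => e (B u u) * _).symm
  · rw [← (Equiv.ofBijective _ (ρ.apply_bijective x)).sum_comp]
    simp [hB, hβ]

omit [Finite U] in
theorem Good.mul (hM : IsPModular p M) {W W' : Submodule (ZMod p) U} (h : IsCompl W W') {hW : ∀ g, W ≤ W.comap (ρ g)}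
    {hW' : ∀ g, W' ≤ W'.comap (ρ g)} {ψ ψ' : H → ℂ} (h1 : Good (ρ.subrepresentation W hW) M ψ)
    (h2 : Good (ρ.subrepresentation W' hW') M ψ') : Good ρ M (ψ * ψ') := by
  have hI := fun {φ : H → ℂ} (h : φ ∈ CS p H) x => lr_of_isIntegral hM (isIntegral_of_CS hp.out.ne_zero h x).2
  refine ⟨mul_mem_CS h1.mem h2.mem, fun x => ?_, fun x hx => ?_⟩
  · rw [Pi.mul_apply, map_mul, mul_mul_mul_comm, h1.norm, h2.norm, ← Nat.cast_mul, ← Nat.card_prod]
    refine congrArg _ (Nat.card_eq_of_bijective (fun d => ⟨d.1.1 + d.2.1, ?_⟩) ⟨fun d d' e1 => ?_, ?_⟩)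
    · obtain ⟨⟨_, u, rfl⟩, _, w, rfl⟩ := d
      exact ⟨u + w, map_add (ρ x - 1) u.1 w.1⟩
    · have e2 : d.1.1.1 + d.2.1.1 = d'.1.1.1 + d'.2.1.1 := congrArg Subtype.val e1
      have e3 : d.1.1.1 - d'.1.1.1 = 0 := Submodule.disjoint_def.1 h.disjoint _ (sub_mem d.1.1.2 d'.1.1.2)
        (by rw [show d.1.1.1 - d'.1.1.1 = d'.2.1.1 - d.2.1.1 by
          rw [sub_eq_sub_iff_add_eq_add, e2, add_comm]]
            exact sub_mem d'.2.1.2 d.2.1.2)
      rw [sub_eq_zero] at e3
      rw [e3, add_right_inj] at e2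
      exact Prod.ext (Subtype.ext (Subtype.ext e3)) (Subtype.ext (Subtype.ext e2))
    · rintro ⟨_, v, rfl⟩
      obtain ⟨u, hu, w, hw, rfl⟩ := Submodule.mem_sup.1 (h.sup_eq_top.ge (Submodule.mem_top (x := v)))
      exact ⟨(⟨_, ⟨u, hu⟩, rfl⟩, ⟨_, ⟨w, hw⟩, rfl⟩), Subtype.ext (map_add (ρ x - 1) u w).symm⟩
  · rw [Pi.mul_apply, map_mul]
    by_cases h3 : ρ.subrepresentation W hW x = 1
    · refine li_mul_left hM (hI h1.mem x) (h2.li x fun h4 => hx (LinearMap.ext fun v => ?_))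
      obtain ⟨u, hu, w, hw, rfl⟩ := Submodule.mem_sup.1 (h.sup_eq_top.ge (Submodule.mem_top (x := v)))
      have e1 : ρ x u = u := congrArg Subtype.val (LinearMap.congr_fun h3 ⟨u, hu⟩ :)
      have e2 : ρ x w = w := congrArg Subtype.val (LinearMap.congr_fun h4 ⟨w, hw⟩ :)
      rw [map_add, e1, e2]; rfl
    · exact li_mul_right hM (h1.li x h3) (hI h2.mem x)

theorem exists_good_nil (hM : IsPModular p M) (hH : ¬ p ∣ Nat.card H) {β : LinearMap.BilinForm (ZMod p) U}
    (hβ : ∀ x u w, β (ρ x u) (ρ x w) = β u w) (hβ' : ∀ c, β c = 0 → c = 0) {ν : Module.End (ZMod p) U}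
    (hν : ∀ u w, β (ν u) w = β u w + β w u) (hc : ∀ x, Commute ν (ρ x)) {n : ℕ} (hn : ν ^ n = 0) : ∃ ψ, Good ρ M ψ := by
  classical
  have := Fintype.ofFinite H
  by_cases h2 : (2 : ZMod p) = 0
  · have hodd : Odd (Nat.card H) := Nat.not_even_iff_odd.1 fun h => hH (((ZMod.natCast_eq_zero_iff 2 p).1
      (by exact_mod_cast h2)).trans h.two_dvd)
    obtain ⟨f, hf⟩ := Countable.exists_injective_nat (ConjClasses H)
    have hf' : ∀ x h : H, ConjClasses.mk (x * h * x⁻¹) = ConjClasses.mk h := fun x h =>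
      ConjClasses.mk_eq_mk_iff_isConj.2 (isConj_iff.2 ⟨x, rfl⟩).symm
    obtain ⟨a, ha⟩ : ∃ a : Module.End (ZMod p) U, a = ∑ h, if f (.mk h) < f (.mk h⁻¹) then ρ h else 0 := ⟨_, rfl⟩
    have a1 : ∀ x u, a (ρ x u) = ρ x (a u) := fun x u => by
      rw [ha, LinearMap.sum_apply, LinearMap.sum_apply, map_sum, ← Equiv.sum_comp (MulAut.conj x).toEquiv]
      refine Finset.sum_congr rfl fun h _ => ?_
      simp only [MulEquiv.toEquiv_eq_coe, EquivLike.coe_coe, MulAut.conj_apply, conj_inv, hf']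
      split_ifs <;> simp
    have a2 : Commute ν a := ha ▸ Commute.sum_right _ _ _ fun h _ => by split_ifs; exacts [hc h, Commute.zero_right _]
    refine exists_good_quad hM hH hβ hβ' (B := β.compRight a) (fun x u w => by simp [a1, hβ]) ?_
    rintro x d ⟨v, hv⟩ h
    have h3 : ∑ h, ρ h d = 0 := by
      simp only [← hv, LinearMap.sub_apply, map_sub, Finset.sum_sub_distrib, ← Module.End.mul_apply, ← map_mul, mul_one]
      rw [← Equiv.sum_comp (Equiv.mulRight x) fun h => ρ h v]; simp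
    have h4 : ∀ w, β d (a w) + β (a d) w + β d w = β (∑ h, ρ h d) w := fun w => by
      rw [ha, LinearMap.sum_apply, LinearMap.sum_apply, map_sum, map_sum, map_sum, LinearMap.sum_apply, LinearMap.sum_apply,
        ← Equiv.sum_comp (Equiv.inv H), ← Finset.sum_add_distrib,
        show β d w = ∑ h : H, if h = 1 then β (ρ h d) w else 0 by simp, ← Finset.sum_add_distrib]
      refine Finset.sum_congr rfl fun h _ => ?_
      have e1 : β d (ρ h⁻¹ w) = β (ρ h d) w := by rw [← hβ h, Representation.self_inv_apply]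
      by_cases h1 : h = 1
      · simp [h1]
      rcases lt_or_gt_of_ne (hf.ne (mt (fun h => eq_one_of_isConj_inv_of_odd hodd
        (ConjClasses.mk_eq_mk_iff_isConj.1 h)) h1)) with h5 | h5 <;> simp [h1, h5, h5.not_gt, e1]
    have h5 : (ν * a) d = d := sub_eq_zero.1 (hβ' _ (LinearMap.ext fun w => by
      have h6 : β d (a w) + β w (a d) = 0 := DFunLike.congr_fun h w
      have h7 := h4 w
      simp only [h3, map_zero, map_sub, LinearMap.sub_apply, LinearMap.zero_apply, Module.End.mul_apply, hν] at h7 ⊢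
      linear_combination h6 + h7 - (β d (a w) + β d w) * h2))
    have h6 : ∀ k : ℕ, ((ν * a) ^ k) d = d := fun k => by
      induction k with
      | zero => rfl
      | succ k ih => rw [pow_succ, Module.End.mul_apply, h5, ih]
    rw [← h6 n, a2.mul_pow, hn, zero_mul, LinearMap.zero_apply]
  · refine exists_good_alt hM hH (ω := β - β.flip) (fun x u w => by simp [hβ]) (fun u => by simp) fun c h => ?_
    have h5 : ν c = (2 : ZMod p) • c := sub_eq_zero.1 (hβ' _ (LinearMap.ext fun w => mul_left_cancel₀ h2 (by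
      have h6 : β c w - β w c + (β c w - β w c) = 0 := DFunLike.congr_fun h w
      simp only [map_sub, LinearMap.sub_apply, LinearMap.zero_apply, hν, map_smul, LinearMap.smul_apply, smul_eq_mul]
      linear_combination -h6)))
    have h6 : ∀ k : ℕ, (ν ^ k) c = (2 : ZMod p) ^ k • c := fun k => by
      induction k with
      | zero => simp
      | succ k ih => rw [pow_succ, Module.End.mul_apply, h5, map_smul, ih, smul_smul, pow_succ']
    exact (smul_eq_zero.1 ((h6 n).symm.trans (by rw [hn]; rfl))).resolve_left (pow_ne_zero _ h2)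

/-- A self-dual coprime module has a square root of `x ↦ |[U, x]|`. -/
theorem exists_good (hM : IsPModular p M) (hH : ¬ p ∣ Nat.card H) {β : LinearMap.BilinForm (ZMod p) U}
    (hβ : ∀ x u w, β (ρ x u) (ρ x w) = β u w) (hβ' : ∀ c, β c = 0 → c = 0) : ∃ ψ, Good ρ M ψ := by
  have hi : Function.Injective β := (injective_iff_map_eq_zero β).2 hβ'
  let b : U ≃ₗ[ZMod p] Module.Dual (ZMod p) U := .ofInjectiveOfFinrankEq β hi Subspace.dual_finrank_eq.symm
  obtain ⟨σ, hσ⟩ : ∃ σ : Module.End (ZMod p) U, ∀ u w, β (σ u) w = β w u :=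
    ⟨b.symm.toLinearMap ∘ₗ β.flip, fun u w => LinearMap.congr_fun (b.apply_symm_apply (β.flip u)) w⟩
  obtain ⟨ν, hν0⟩ : ∃ ν : Module.End (ZMod p) U, ν = 1 + σ := ⟨_, rfl⟩
  have hν : ∀ u w, β (ν u) w = β u w + β w u := fun u w => by simp [hν0, hσ]
  have hc : ∀ x, Commute ν (ρ x) := fun x => LinearMap.ext fun u => hi (LinearMap.ext fun w => by
    obtain ⟨w, rfl⟩ := (ρ.apply_bijective x).2 w
    simp only [Module.End.mul_apply, hν, hβ])
  have hσν : Commute ν σ := hν0 ▸ (Commute.one_left σ).add_left (Commute.refl σ)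
  have h1 : ∀ (k : ℕ) a c, β ((ν ^ k) a) c = β ((σ ^ k) a) ((ν ^ k) c) := fun k => by
    induction k with
    | zero => simp
    | succ k ih =>
      intro a c
      rw [pow_succ', Module.End.mul_apply, hν, add_comm, ← hν, ← hσ, ← Module.End.mul_apply, ← (hσν.pow_left k).eq,
        Module.End.mul_apply, ih, ← pow_succ', pow_succ, pow_succ]; rfl
  obtain ⟨n, hn, hn1⟩ := (ν.eventually_isCompl_ker_pow_range_pow.and (Filter.eventually_ge_atTop 1)).exists
  have h2 : ∀ c ∈ ker (ν ^ n), ∀ d ∈ range (ν ^ n), β d c = 0 ∧ β c d = 0 := by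
    rintro c hc _ ⟨a, rfl⟩
    rw [← hσ _ c, ← Module.End.mul_apply σ, ← (hσν.pow_left n).eq, Module.End.mul_apply, h1, h1, mem_ker.1 hc]
    simp
  have hW : ∀ g, ker (ν ^ n) ≤ (ker (ν ^ n)).comap (ρ g) := fun g u hu => by
    rw [Submodule.mem_comap, mem_ker, ← Module.End.mul_apply, ((hc g).pow_left n).eq, Module.End.mul_apply, mem_ker.1 hu,
      map_zero]
  have hW' : ∀ g, range (ν ^ n) ≤ (range (ν ^ n)).comap (ρ g) := by
    rintro g _ ⟨u, rfl⟩
    exact ⟨ρ g u, LinearMap.congr_fun ((hc g).pow_left n).eq u⟩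
  have hd : ∀ u, ∃ c ∈ ker (ν ^ n), ∃ d ∈ range (ν ^ n), c + d = u := fun u =>
    Submodule.mem_sup.1 (hn.sup_eq_top.ge Submodule.mem_top)
  have hk : ∀ u ∈ ker (ν ^ n), ν u ∈ ker (ν ^ n) := fun u hu => by
    rw [mem_ker, ← Module.End.mul_apply, ← pow_succ, pow_succ', Module.End.mul_apply, mem_ker.1 hu, map_zero]
  obtain ⟨ψ, hψ⟩ := exists_good_nil (ρ := ρ.subrepresentation _ hW) hM hH (β := β.restrict _) (fun x u w => hβ x u w)
    (fun c h => Subtype.ext (hβ' c (LinearMap.ext fun u => by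
      obtain ⟨c', hc', d, hd, rfl⟩ := hd u
      simpa [(h2 c c.2 d hd).2] using LinearMap.congr_fun h ⟨c', hc'⟩))) (ν := ν.restrict hk) (fun u w => hν u w)
    (fun x => LinearMap.ext fun u => Subtype.ext (LinearMap.congr_fun (hc x).eq u)) (n := n)
    (LinearMap.ext fun u => Subtype.ext (by rw [Module.End.pow_restrict]; exact u.2))
  have h3 : ∀ d ∈ range (ν ^ n), (∀ w ∈ range (ν ^ n), β d w = 0) → d = 0 := fun d hd' h => hβ' d (LinearMap.ext fun u => by
    obtain ⟨c', hc', d', hd'', rfl⟩ := hd u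
    simp [(h2 c' hc' d hd').1, h d' hd''])
  obtain ⟨ψ', hψ'⟩ := exists_good_quad (ρ := ρ.subrepresentation _ hW') hM hH (β := β.restrict _) (B := β.restrict _)
    (fun x u w => hβ x u w) (fun c h => Subtype.ext (h3 c c.2 fun w hw => LinearMap.congr_fun h ⟨w, hw⟩))
    (fun x u w => hβ x u w) fun x d _ h => Subtype.ext (Submodule.disjoint_def.1 hn.disjoint _ (by
      have h4 : ν d = 0 := h3 _ (by
        obtain ⟨a, ha⟩ := d.2
        exact ⟨ν a, by rw [← ha, ← Module.End.mul_apply, ← pow_succ, pow_succ', Module.End.mul_apply]⟩) fun w hw =>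
          (hν _ w).trans (LinearMap.congr_fun h ⟨w, hw⟩)
      exact Module.End.pow_map_zero_of_le hn1 (by rwa [pow_one])) d.2)
  exact ⟨_, hψ.mul hM hn hψ'⟩

open Subgroup CfsgLib.PLocal in
/-- Robinson–Thompson: the real vector criterion. -/
theorem Setup.card_le_of_real {X : Type*} [Group X] [Finite X] {V G : Subgroup X} {v : X} (S : Setup p V G v)
    {U : Subgroup X} (hUV : U ≤ V) (hN : G ⊓ Cu v ≤ normalizer (U : Set X))
    (hf : ∀ h ∈ G ⊓ Cu v, (∀ u ∈ U, h * u * h⁻¹ = u) → h = 1) (β : X → X → ZMod p)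
    (hl : ∀ u ∈ U, ∀ u' ∈ U, ∀ w ∈ U, β (u * u') w = β u w + β u' w)
    (hr : ∀ u ∈ U, ∀ w ∈ U, ∀ w' ∈ U, β u (w * w') = β u w + β u w')
    (hi : ∀ h ∈ G ⊓ Cu v, ∀ u ∈ U, ∀ w ∈ U, β (h * u * h⁻¹) (h * w * h⁻¹) = β u w)
    (hnd : ∀ u ∈ U, (∀ w ∈ U, β u w = 0) → u = 1) : Nat.card (ConjClasses X) ≤ Nat.card V := by
  obtain ⟨M, hM⟩ := exists_isPModular' hp.out
  have hU : IsElementaryAbelian p U := ⟨⟨⟨fun a b => Subtype.ext (S.comm (hUV a.2) (hUV b.2))⟩⟩, fun a ha => S.exp a (hUV ha)⟩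
  have hH : ¬ p ∣ Nat.card ↥(G ⊓ Cu v) := fun h =>
    S.idx (S.compl.symm.index_eq_card ▸ h.trans (card_dvd_of_le inf_le_left))
  let B : LinearMap.BilinForm (ZMod p) (ElemMod hU) := AddMonoidHom.toZModLinearMap p (.mk' (fun u =>
    AddMonoidHom.toZModLinearMap p (.mk' (fun w => β u.toG w.toG) fun w w' => hr _ u.toG_mem _ w.toG_mem _ w'.toG_mem))
    fun u u' => LinearMap.ext fun w => hl _ u.toG_mem _ u'.toG_mem _ w.toG_mem)
  obtain ⟨ψ, hψ⟩ := exists_good (ρ := ElemMod.rep hU hN) hM hH (β := B) (fun x u w => hi x x.2 _ u.toG_mem _ w.toG_mem)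
    fun c h => ElemMod.toG_eq_one.1 (hnd _ c.toG_mem fun w hw => LinearMap.congr_fun h (ElemMod.ofG hU w hw))
  have h1 : ∀ h : ↥(G ⊓ Cu v), Nat.card (range (ElemMod.rep hU hN h - 1)) = (Cu (h : X)).relIndex U := fun h => by
    refine Nat.eq_of_mul_eq_mul_left (Nat.card_pos (α := ↥(Cu (h : X) ⊓ U))) ?_
    rw [Core.card_inf_mul_relIndex, inf_comm, ← ElemMod.card_sub (hV := hU), ← ElemMod.card_eq (hV := hU),
      ← Nat.card_congr (Submodule.prodEquivOfIsCompl _ _ (isCompl_ker_range (ρ := ElemMod.rep hU hN) hH h)).toEquiv,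
      Nat.card_prod]
    congr 3; ext u
    exact (ElemMod.mem_sub.trans mem_Cu).trans ((ElemMod.rep_apply_eq_iff hN h u).symm.trans sub_eq_zero.symm)
  refine S.knorr hM hψ.mem ?_ (fun h hh => hψ.li h fun h2 => hh (Subtype.ext (hf _ h.2 fun u hu =>
    congrArg ElemMod.toG (LinearMap.congr_fun h2 (ElemMod.ofG hU u hu)))))
    (c := fun h => (Cu (h : X)).relIndex U * Nat.card ↥(V ⊓ Cu (h : X))) (fun h => by rw [hψ.norm, h1, Nat.cast_mul])
    fun h => ?_
  · rw [hψ.norm, map_one, sub_self, range_zero]; simp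
  · rw [← Core.card_inf_mul_relIndex (Cu (h : X)) V, inf_comm V, mul_comm]
    exact Nat.mul_le_mul_left _ (relIndex_le_of_le_right hUV FiniteIndex.index_ne_zero)

end CfsgLib.KGV
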